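import Mathlib
import Cfsg.Agent.Lib.PLocal.Dickson
import Cfsg.Agent.Lib.PLocal.QuadClass

/-!
Standard form of the copy of `SL₂(p)` in Dickson's theorem.
-/

set_option autoImplicit false
set_option linter.unusedSectionVars false

namespace Cfsg.Agent.Lib.PLocal

open Cfsg.Agent.Lib.Known
open scoped Pointwise

variable {F : Type*} [Field F] [Finite F] {p : ℕ} [Fact p.Prime] [CharP F p]

/-- The standard copy of `SL₂(p)` in `SL₂(F)`. -/
noncomputable abbrev dkStd (F : Type*) [Field F] (p : ℕ) [Fact p.Prime] [CharP F p] :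
    Matrix.SpecialLinearGroup (Fin 2) (ZMod p) →* SL2 F :=
  Matrix.SpecialLinearGroup.map (ZMod.castHom (dvd_refl p) F)

theorem dkStd_injective : Function.Injective (dkStd F p) := by
  intro a b hab
  apply Subtype.ext
  ext i j
  have := congrFun (congrFun (congrArg Subtype.val hab) i) j
  exact (ZMod.castHom (dvd_refl p) F).injective this

/-- The form of the embedding attached to a pair `U(1)`, `x`. -/
theorem dk_std_of_pair {H : Subgroup (SL2 F)} (hu : sl2U (1 : F) ∈ H) {x : SL2 F} (hx : x ∈ H)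
    (ht : dkTr x = 2) (hx1 : x.1 1 0 = 1) :
    ∀ g, sl2U (x.1 0 0 - 1) * dkStd F p g * (sl2U (x.1 0 0 - 1))⁻¹ ∈ H := by
  classical
  set ω := x.1 0 0 - 1 with hω
  set f : ZMod p →+* F := ZMod.castHom (dvd_refl p) F with hf
  set m : Matrix.SpecialLinearGroup (Fin 2) (ZMod p) →* SL2 F := dkStd F p with hm
  set ψ : Matrix.SpecialLinearGroup (Fin 2) (ZMod p) →* SL2 F :=
    (MulAut.conj (sl2U ω)).toMonoidHom.comp m with hψ
  have hxe : x = sl2U ω * Cfsg.Agent.Lib.Root.aL 1 * (sl2U ω)⁻¹ := by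
    have hd := dk_det x
    simp only [dkTr] at ht
    rw [hx1] at hd
    have h11 : x.1 1 1 = 1 - ω := by rw [hω]; linear_combination ht
    have h00 : x.1 0 0 = 1 + ω := by rw [hω]; ring
    rw [h00, h11] at hd
    have h01 : x.1 0 1 = - ω ^ 2 := by linear_combination -hd
    apply dk_ext
    · simp only [dk_mul_apply, dk_inv_00, dk_inv_01, dk_inv_10, dk_inv_11, sl2U_00, sl2U_01, sl2U_10, sl2U_11,
        Cfsg.Agent.Lib.Root.aL_00, Cfsg.Agent.Lib.Root.aL_01, Cfsg.Agent.Lib.Root.aL_10, Cfsg.Agent.Lib.Root.aL_11]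
      rw [h00]
      ring
    · simp only [dk_mul_apply, dk_inv_00, dk_inv_01, dk_inv_10, dk_inv_11, sl2U_00, sl2U_01, sl2U_10, sl2U_11,
        Cfsg.Agent.Lib.Root.aL_00, Cfsg.Agent.Lib.Root.aL_01, Cfsg.Agent.Lib.Root.aL_10, Cfsg.Agent.Lib.Root.aL_11]
      rw [h01]
      ring
    · simp only [dk_mul_apply, dk_inv_00, dk_inv_01, dk_inv_10, dk_inv_11, sl2U_00, sl2U_01, sl2U_10, sl2U_11,
        Cfsg.Agent.Lib.Root.aL_00, Cfsg.Agent.Lib.Root.aL_01, Cfsg.Agent.Lib.Root.aL_10, Cfsg.Agent.Lib.Root.aL_11]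
      rw [hx1]
      ring
    · simp only [dk_mul_apply, dk_inv_00, dk_inv_01, dk_inv_10, dk_inv_11, sl2U_00, sl2U_01, sl2U_10, sl2U_11,
        Cfsg.Agent.Lib.Root.aL_00, Cfsg.Agent.Lib.Root.aL_01, Cfsg.Agent.Lib.Root.aL_10, Cfsg.Agent.Lib.Root.aL_11]
      rw [h11]
      ring
  have hcast : ∀ t : ZMod p, f t = (t.val : F) := by
    intro t
    rw [hf, ZMod.castHom_apply]
    exact (ZMod.natCast_val (R := F) t).symm
  have hme : ∀ (g : Matrix.SpecialLinearGroup (Fin 2) (ZMod p)) (i j : Fin 2), (m g).1 i j = f (g.1 i j) :=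
    fun _ _ _ => rfl
  have hL : ∀ t : ZMod p, ψ (Cfsg.Agent.Lib.Root.aL t) = x ^ t.val := by
    intro t
    have h1 : m (Cfsg.Agent.Lib.Root.aL t) = Cfsg.Agent.Lib.Root.aL (t.val : F) := by
      apply Cfsg.Agent.Lib.Root.sl2_ext <;> simp only [hme] <;> simp [hcast]
    rw [hxe, conj_pow, dk_aL_pow]
    change sl2U ω * m (Cfsg.Agent.Lib.Root.aL t) * (sl2U ω)⁻¹ = _
    rw [h1]
  have hU : ∀ t : ZMod p, ψ (Cfsg.Agent.Lib.Root.bU t) = sl2U 1 ^ t.val := by
    intro t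
    have h1 : m (Cfsg.Agent.Lib.Root.bU t) = sl2U (t.val : F) := by
      apply Cfsg.Agent.Lib.Root.sl2_ext <;> simp only [hme] <;> simp [hcast]
    change sl2U ω * m (Cfsg.Agent.Lib.Root.bU t) * (sl2U ω)⁻¹ = _
    rw [h1, sl2U_pow, sl2U_add, mul_one]
    rw [mul_inv_eq_iff_eq_mul, sl2U_add, add_comm]
  have htop : ψ.range ≤ H := by
    rw [MonoidHom.range_eq_map, ← Cfsg.Agent.Lib.Root.sup_lower_upper, Subgroup.map_sup, sup_le_iff]
    constructor
    · rintro _ ⟨g, hg, rfl⟩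
      rw [Cfsg.Agent.Lib.Root.eq_aL hg, hL]
      exact H.pow_mem hx _
    · rintro _ ⟨g, hg, rfl⟩
      rw [Cfsg.Agent.Lib.Root.eq_bU hg, hU]
      exact H.pow_mem hu _
  exact fun g => htop ⟨g, rfl⟩

/-- The scaling is a conjugation in `GL₂`. -/
theorem dkScale_toGL (d : F) (hd : d ≠ 0) :
    ∃ D : GL (Fin 2) F, ∀ g : SL2 F, (Matrix.SpecialLinearGroup.toGL (dkScale d hd g) : GL (Fin 2) F) =
      D * Matrix.SpecialLinearGroup.toGL g * D⁻¹ := by
  let A : Matrix (Fin 2) (Fin 2) F := !![d, 0; 0, 1]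
  let B : Matrix (Fin 2) (Fin 2) F := !![d⁻¹, 0; 0, 1]
  have hAB : A * B = 1 := by
    ext i j
    fin_cases i <;> fin_cases j <;> simp [A, B, Matrix.mul_apply, Fin.sum_univ_two, hd]
  have hBA : B * A = 1 := by
    ext i j
    fin_cases i <;> fin_cases j <;> simp [A, B, Matrix.mul_apply, Fin.sum_univ_two, hd]
  let D : GL (Fin 2) F := ⟨A, B, hAB, hBA⟩
  refine ⟨D, fun g => ?_⟩
  apply Units.ext
  change ((dkScaleHom d hd g : SL2 F) : Matrix (Fin 2) (Fin 2) F) = A * (g : Matrix (Fin 2) (Fin 2) F) * B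
  ext i j
  have hd' := dk_det g
  fin_cases i <;> fin_cases j <;>
    simp [dkScaleHom_apply, A, B, Matrix.mul_apply, Fin.sum_univ_two, hd, div_eq_mul_inv, mul_comm,
      Matrix.vecMul, dotProduct]

/-- Normalization of a transvection, by a conjugation in `GL₂`. -/
theorem dk_exists_normalize_GL {y : SL2 F} (hy1 : y ≠ 1) (hy : (y.1 - 1) * (y.1 - 1) = 0) :
    ∃ (Φ : SL2 F ≃* SL2 F) (Q : GL (Fin 2) F), Φ y = sl2U 1 ∧
      ∀ h, (Matrix.SpecialLinearGroup.toGL (Φ h) : GL (Fin 2) F) = Q * Matrix.SpecialLinearGroup.toGL h * Q⁻¹ := by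
  obtain ⟨b, hb, hc⟩ := sl2_exists_conj_U y (fun h => hy1 (Subtype.ext h)) hy
  obtain ⟨c, hc⟩ := isConj_iff.mp hc
  obtain ⟨D, hD⟩ := dkScale_toGL (b⁻¹) (inv_ne_zero hb)
  refine ⟨(MulAut.conj c).trans (dkScale b⁻¹ (inv_ne_zero hb)), D * Matrix.SpecialLinearGroup.toGL c, ?_, ?_⟩
  · simp only [MulEquiv.trans_apply, MulAut.conj_apply]
    rw [hc, dkScale_U, inv_mul_cancel₀ hb]
  · intro h
    simp only [MulEquiv.trans_apply, MulAut.conj_apply]
    rw [hD, map_mul, map_mul, map_inv]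
    group

/-- **Dickson's theorem**, with the standard form of the embedding. -/
theorem dk_core_std (hp : p ≠ 2) {H : Subgroup (SL2 F)} {y y' : SL2 F} (hy : y ∈ H) (hy' : y' ∈ H)
    (hyp : y ^ p = 1) (hyp' : y' ^ p = 1) (hc : y * y' ≠ y' * y) :
    ∃ P : GL (Fin 2) F, ∀ g, ∃ h ∈ H, (Matrix.SpecialLinearGroup.toGL h : GL (Fin 2) F) =
      P * Matrix.SpecialLinearGroup.toGL (dkStd F p g) * P⁻¹ := by
  classical
  have h2 := dk_two_ne (F := F) hp
  have hy1 : y ≠ 1 := by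
    rintro rfl
    simp at hc
  -- `y` is a transvection
  have hN : (y.1 - 1) * (y.1 - 1) = 0 := by
    apply m2_sq_eq_zero_of_nilpotent
    refine ⟨p, ?_⟩
    rw [sub_pow_char_of_commute p (Commute.one_right _), one_pow, ← Matrix.SpecialLinearGroup.coe_pow, hyp]
    simp
  obtain ⟨Φ, Q, hΦ, hQ⟩ := dk_exists_normalize_GL hy1 hN
  set H₁ : Subgroup (SL2 F) := H.map Φ.toMonoidHom with hH₁
  set H₂ : Subgroup (SL2 F) := H₁ ⊔ Subgroup.zpowers (-1 : SL2 F) with hH₂
  have hu₁ : sl2U (1 : F) ∈ H₁ := ⟨y, hy, hΦ⟩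
  have hu : sl2U (1 : F) ∈ H₂ := (le_sup_left : H₁ ≤ H₂) hu₁
  have hneg : (-1 : SL2 F) ∈ H₂ := (le_sup_right : _ ≤ H₂) (Subgroup.mem_zpowers _)
  -- a non-upper triangular element
  have hy'1 : Φ y' ∈ H₁ := ⟨y', hy', rfl⟩
  have hnot : (Φ y').1 1 0 ≠ 0 := by
    intro h
    have h3 : (Φ y') ^ p = 1 := by rw [← map_pow, hyp', map_one]
    have h4 := dk_eq_U_of_pow h h3
    apply hc
    apply Φ.injective
    rw [map_mul, map_mul, hΦ, h4, sl2U_add, sl2U_add, add_comm]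
  have hnot' : ∃ g : H₂, (g : SL2 F).1 1 0 ≠ 0 := ⟨⟨_, (le_sup_left : H₁ ≤ H₂) hy'1⟩, hnot⟩
  obtain ⟨l, hidx, hl1, hl⟩ := dk_outcome hp hneg hu hnot'
  obtain ⟨g₀, hg₀⟩ := hnot'
  have hx : ∃ x : SL2 F, x ∈ H₂ ∧ dkTr x = 2 ∧ x.1 1 0 = 1 := by
    rcases hl with rfl | ⟨hq, rfl⟩
    · exact dk_case_one hg₀ (by rw [hidx, one_mul]) hu
    · exact dk_case_three hp hneg hu hg₀ hq (by rw [hidx, hq])
  obtain ⟨x, hxH, htx, hx1⟩ := hx
  have hx₁ : x ∈ H₁ := dk_mem_of_sup hp htx hxH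
  have hstd := dk_std_of_pair (p := p) hu₁ hx₁ htx hx1
  refine ⟨Q⁻¹ * Matrix.SpecialLinearGroup.toGL (sl2U (x.1 0 0 - 1)), fun g => ?_⟩
  obtain ⟨h, hh, hhe⟩ := hstd g
  refine ⟨h, hh, ?_⟩
  have h3 := hQ h
  have h4 : Φ h = sl2U (x.1 0 0 - 1) * dkStd F p g * (sl2U (x.1 0 0 - 1))⁻¹ := hhe
  rw [h4, map_mul, map_mul, map_inv] at h3
  have h5 : (Matrix.SpecialLinearGroup.toGL h : GL (Fin 2) F) = Q⁻¹ * (Q * Matrix.SpecialLinearGroup.toGL h * Q⁻¹) * Q := by
    group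
  rw [h5, ← h3]
  group

/-- The two-dimensional situation. -/
theorem dk_quad_std (hp : p ≠ 2)
    (a b : GL (Fin 2) F) (ha : a ^ p = 1) (hb : b ^ p = 1) (ha1 : a ≠ 1)
    (hirr : ∀ v : Fin 2 → F, v ≠ 0 → ∃ g ∈ Subgroup.closure ({a, b} : Set (GL (Fin 2) F)),
      (g : Matrix (Fin 2) (Fin 2) F).mulVec v ∉ Submodule.span F {v}) :
    ∃ P : GL (Fin 2) F, ∀ g, P * Matrix.SpecialLinearGroup.toGL (dkStd F p g) * P⁻¹ ∈
      Subgroup.closure ({a, b} : Set (GL (Fin 2) F)) := by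
  classical
  set H := Subgroup.closure ({a, b} : Set (GL (Fin 2) F)) with hH
  have haH : a ∈ H := Subgroup.subset_closure (by simp)
  have hbH : b ∈ H := Subgroup.subset_closure (by simp)
  by_cases hc : a * b = b * a
  · -- the closure is a `p`-group
    exfalso
    have hza : IsPGroup p (Subgroup.zpowers a) := dk_isPGroup_zpowers ha
    have hzb : IsPGroup p (Subgroup.zpowers b) := dk_isPGroup_zpowers hb
    have hle : Subgroup.zpowers a ≤ Subgroup.normalizer ((Subgroup.zpowers b : Subgroup _) : Set (GL (Fin 2) F)) := by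
      rw [Subgroup.zpowers_le, Subgroup.mem_normalizer_iff]
      intro z
      constructor
      · rintro ⟨i, rfl⟩
        refine ⟨i, ?_⟩
        have h3 : Commute a (b ^ i) := (show Commute a b from hc).zpow_right i
        simp only
        rw [h3.eq]
        group
      · rintro ⟨i, hi⟩
        refine ⟨i, ?_⟩
        simp only at hi ⊢
        have h3 : Commute a (b ^ i) := (show Commute a b from hc).zpow_right i
        have h4 : z = a⁻¹ * (b ^ i) * a := by rw [hi]; group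
        rw [h4, mul_assoc, ← h3.eq]
        group
    have hpg := IsPGroup.to_sup_of_normal_right' hza hzb hle
    have hcl : H = Subgroup.zpowers a ⊔ Subgroup.zpowers b := by
      rw [hH, show ({a, b} : Set (GL (Fin 2) F)) = {a} ∪ {b} from rfl, Subgroup.closure_union,
        Subgroup.zpowers_eq_closure, Subgroup.zpowers_eq_closure]
    obtain ⟨v, hv, hfix⟩ := exists_fixed_vector (p := p) H (by rw [hcl]; exact hpg)
    obtain ⟨g, hg, hgv⟩ := hirr v hv
    apply hgv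
    rw [hfix g hg]
    exact Submodule.mem_span_singleton_self v
  · have hpp : p.Prime := Fact.out
    let a' : SL2 F := ⟨(a : Matrix (Fin 2) (Fin 2) F), gl2_det_one ha⟩
    let b' : SL2 F := ⟨(b : Matrix (Fin 2) (Fin 2) F), gl2_det_one hb⟩
    let j : SL2 F →* GL (Fin 2) F := Matrix.SpecialLinearGroup.toGL
    have hja : j a' = a := Units.ext rfl
    have hjb : j b' = b := Units.ext rfl
    have hjinj : Function.Injective j := by
      intro x y h
      apply Subtype.ext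
      exact congrArg Units.val h
    have ha'p : a' ^ p = 1 := by
      apply hjinj
      rw [map_pow, hja, ha, map_one]
    have hb'p : b' ^ p = 1 := by
      apply hjinj
      rw [map_pow, hjb, hb, map_one]
    have hc' : a' * b' ≠ b' * a' := by
      intro h
      apply hc
      have := congrArg j h
      rwa [map_mul, map_mul, hja, hjb] at this
    obtain ⟨P, hP⟩ := dk_core_std (p := p) hp (H := Subgroup.closure ({a', b'} : Set (SL2 F)))
      (Subgroup.subset_closure (by simp)) (Subgroup.subset_closure (by simp)) ha'p hb'p hc'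
    have hmap : (Subgroup.closure ({a', b'} : Set (SL2 F))).map j ≤ H := by
      rw [MonoidHom.map_closure, Subgroup.closure_le, Set.image_pair, hja, hjb]
      exact Subgroup.subset_closure
    refine ⟨P, fun g => ?_⟩
    obtain ⟨h, hh, hhe⟩ := hP g
    rw [← hhe]
    exact hmap ⟨h, hh, rfl⟩

end Cfsg.Agent.Lib.PLocal
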