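import Mathlib

/-!
Two quadratically acting generators of a linear group over a finite field.
-/

namespace Cfsg.Agent.Lib.PLocal

open Module Polynomial

section chain
variable {K W : Type*} [Field K] [AddCommGroup W] [Module K W]

/-- The descending chain generated by two operators. -/
def quadChain (α β : End K W) : ℕ → Submodule K W
  | 0 => ⊤
  | n+1 => (quadChain α β n).map α ⊔ (quadChain α β n).map β

lemma quadChain_succ_le (α β : End K W) (n : ℕ) : quadChain α β (n+1) ≤ quadChain α β n := by
  induction n with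
  | zero => exact le_top
  | succ n ih => exact sup_le_sup (Submodule.map_mono ih) (Submodule.map_mono ih)

lemma quadChain_comm (α β : End K W) (n : ℕ) : quadChain α β n = quadChain β α n := by
  induction n with
  | zero => rfl
  | succ n ih => simp only [quadChain, ih]; exact sup_comm _ _

lemma quadChain_step_aux {α β : End K W} (ha : α * α = 0) (hb : β * β = 0) (n : ℕ) :
    (quadChain α β (n+2)).map α ≤ (quadChain α β (n+1)).map (α*β+β*α) := by
  rintro _ ⟨y, hy, rfl⟩
  have hy' : y ∈ (quadChain α β (n+1)).map α ⊔ (quadChain α β (n+1)).map β := hy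
  obtain ⟨y1, hy1, y2, hy2, rfl⟩ := Submodule.mem_sup.mp hy'
  obtain ⟨z1, _, rfl⟩ := hy1
  obtain ⟨z2, hz2, rfl⟩ := hy2
  have hz2' : z2 ∈ (quadChain α β n).map α ⊔ (quadChain α β n).map β := hz2
  obtain ⟨y3, hy3, y4, hy4, rfl⟩ := Submodule.mem_sup.mp hz2'
  obtain ⟨w1, hw1, rfl⟩ := hy3
  obtain ⟨w2, _, rfl⟩ := hy4
  refine ⟨α w1, ?_, ?_⟩
  · exact (le_sup_left : _ ≤ (quadChain α β n).map α ⊔ (quadChain α β n).map β) ⟨w1, hw1, rfl⟩
  · have e1 : ∀ x, α (α x) = 0 := fun x => by
      have := congrArg (fun f : End K W => f x) ha; simpa using this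
    have e2 : ∀ x, β (β x) = 0 := fun x => by
      have := congrArg (fun f : End K W => f x) hb; simpa using this
    simp [e1, e2]

lemma quadChain_step {α β : End K W} (ha : α * α = 0) (hb : β * β = 0) (n : ℕ) :
    quadChain α β (n+3) ≤ (quadChain α β (n+1)).map (α*β+β*α) := by
  refine sup_le (quadChain_step_aux ha hb n) ?_
  have := quadChain_step_aux hb ha n
  rw [quadChain_comm β α (n+2), quadChain_comm β α (n+1), add_comm (β*α) (α*β)] at this
  exact this

lemma quadChain_eq_bot {α β : End K W} (ha : α * α = 0) (hb : β * β = 0) {n : ℕ}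
    (hn : (α*β+β*α)^n = 0) : quadChain α β (2*n+1) = ⊥ := by
  have key : ∀ m, quadChain α β (2*m+1) ≤ (quadChain α β 1).map ((α*β+β*α)^m) := by
    intro m
    induction m with
    | zero => exact (Submodule.map_id _).ge
    | succ m ih =>
      have e : 2*(m+1)+1 = (2*m)+3 := by ring
      rw [e]
      refine (quadChain_step ha hb (2*m)).trans ?_
      rw [pow_succ', Module.End.mul_eq_comp _ ((α*β+β*α)^m), Submodule.map_comp]
      exact Submodule.map_mono ih
  have := key n
  rw [hn] at this
  simpa using this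

/-- Operators `a`, `b` with `(a-1)^2=(b-1)^2=0` and `(ab)^(p^e)=1` generate a `p`-group. -/
theorem isPGroup_of_quadratic_unipotent {p : ℕ} [Fact p.Prime] [CharP K p]
    [Nontrivial W] (H : Subgroup (W ≃ₗ[K] W)) (a b : W ≃ₗ[K] W)
    (hH : H = Subgroup.closure {a, b})
    (ha : ∀ w : W, a (a w - w) = a w - w) (hb : ∀ w : W, b (b w - w) = b w - w)
    (e : ℕ) (hT : (a*b)^(p^e) = 1) : IsPGroup p H := by
  classical
  have hch : CharP (End K W) p := by
    obtain ⟨x, hx⟩ := exists_ne (0:W)
    refine Module.charP_end ⟨x, ?_⟩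
    rw [eq_bot_iff]
    intro r hr
    rw [Ideal.mem_torsionOf_iff] at hr
    rw [Ideal.mem_bot]
    by_contra h
    exact hx ((smul_eq_zero.mp hr).resolve_left h)
  set ι : (W ≃ₗ[K] W) →* End K W := LinearEquiv.automorphismGroup.toLinearMapMonoidHom with hι
  have ιa : ∀ (g : W ≃ₗ[K] W) w, ι g w = g w := fun _ _ => rfl
  set α : End K W := ι a - 1 with hα
  set β : End K W := ι b - 1 with hβ
  have hαα : α * α = 0 := by
    ext w; simp [hα, ιa, ha]
  have hββ : β * β = 0 := by
    ext w; simp [hβ, ιa, hb]
  -- the nilpotence of γ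
  set T : End K W := ι (a*b) with hTd
  set Ti : End K W := ι (a*b)⁻¹ with hTi
  have hTTi : T * Ti = 1 := by rw [hTd, hTi, ← map_mul]; simp
  have hTiT : Ti * T = 1 := by rw [hTd, hTi, ← map_mul]; simp
  have haE : ι a = 1 + α := by simp [hα]
  have hbE : ι b = 1 + β := by simp [hβ]
  have hT1 : T = (1+α)*(1+β) := by rw [hTd, map_mul, haE, hbE]
  have hainv : ι a⁻¹ = 1 - α := by
    have h1 : ι a⁻¹ * ι a = 1 := by rw [← map_mul]; simp
    have h3 : ι a * (1 - α) = 1 := by
      rw [haE]; noncomm_ring; simp [hαα]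
    exact left_inv_eq_right_inv h1 h3
  have hbinv : ι b⁻¹ = 1 - β := by
    have h1 : ι b⁻¹ * ι b = 1 := by rw [← map_mul]; simp
    have h3 : ι b * (1 - β) = 1 := by
      rw [hbE]; noncomm_ring; simp [hββ]
    exact left_inv_eq_right_inv h1 h3
  have hTi1 : Ti = (1-β)*(1-α) := by
    rw [hTi, mul_inv_rev, map_mul, hainv, hbinv]
  have hγ : α*β+β*α = Ti * (T-1)^2 := by
    have h1 : Ti * (T-1)^2 = (Ti*T)*T - 2*(Ti*T) + Ti := by noncomm_ring
    have h2 : (2 : End K W) = 1 + 1 := by norm_num
    rw [h1, hTiT, one_mul, mul_one, hT1, hTi1, h2]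
    simp only [mul_sub, sub_mul, mul_add, add_mul, one_mul, mul_one]
    abel
  have hcomm : Commute Ti (T-1) := by
    show Ti * (T-1) = (T-1) * Ti
    rw [mul_sub, sub_mul, hTiT, hTTi, mul_one, one_mul]
  have hTp : (T-1)^(p^e) = 0 := by
    rw [sub_pow_char_pow_of_commute p e (Commute.one_right T), one_pow, sub_eq_zero, hTd, ← map_pow, hT,
      map_one]
  have hγn : (α*β+β*α)^(p^e) = 0 := by
    rw [hγ, (hcomm.pow_right 2).mul_pow, ← pow_mul, mul_comm 2, pow_mul, hTp]
    simp
  have hG := quadChain_eq_bot hαα hββ hγn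
  set G := quadChain α β with hGd
  have hP : ∀ h ∈ H, ∀ m, ∀ w ∈ G m, ι h w - w ∈ G (m+1) ∧ ι h⁻¹ w - w ∈ G (m+1) := by
    intro h hh
    rw [hH] at hh
    induction hh using Subgroup.closure_induction with
    | mem x hx =>
      intro m w hw
      have h1 : α w ∈ G (m+1) := (le_sup_left : _ ≤ (G m).map α ⊔ (G m).map β) ⟨w, hw, rfl⟩
      have h2 : β w ∈ G (m+1) := (le_sup_right : _ ≤ (G m).map α ⊔ (G m).map β) ⟨w, hw, rfl⟩
      rcases hx with rfl | hx
      · rw [hainv, haE]
        constructor
        · simpa using h1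
        · simpa using (G (m+1)).neg_mem h1
      · rw [show x = b from hx, hbinv, hbE]
        constructor
        · simpa using h2
        · simpa using (G (m+1)).neg_mem h2
    | one => intro m w _; simp
    | mul x y _ _ hx hy =>
      intro m w hw
      have hle : G (m+1) ≤ G m := quadChain_succ_le α β m
      constructor
      · have h1 := (hy m w hw).1
        have h2 : ι y w ∈ G m := by
          have := (G m).add_mem (hle h1) hw
          simpa using this
        have h3 := (hx m _ h2).1
        have := (G (m+1)).add_mem h3 h1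
        simpa [map_mul, add_comm] using this
      · rw [mul_inv_rev]
        have h1 := (hx m w hw).2
        have h2 : ι x⁻¹ w ∈ G m := by
          have := (G m).add_mem (hle h1) hw
          simpa using this
        have h3 := (hy m _ h2).2
        have := (G (m+1)).add_mem h3 h1
        simpa [map_mul, add_comm] using this
    | inv x _ hx =>
      intro m w hw
      rw [inv_inv]
      exact ⟨(hx m w hw).2, (hx m w hw).1⟩
  intro g
  have hpow : ∀ m w, ((ι (g:W ≃ₗ[K] W) - 1)^m) w ∈ G m := by
    intro m
    induction m with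
    | zero => intro w; exact Submodule.mem_top
    | succ m ih =>
      intro w
      rw [pow_succ']
      have := (hP g g.2 m _ (ih w)).1
      simpa using this
  have hp1 : (Fact.out : p.Prime).one_lt = (Fact.out : p.Prime).one_lt := rfl
  refine ⟨2*p^e+1, Subtype.ext ?_⟩
  have hle : 2*p^e+1 ≤ p^(2*p^e+1) := (Nat.lt_pow_self (Fact.out : p.Prime).one_lt).le
  have hz : (ι (g:W ≃ₗ[K] W) - 1)^(p^(2*p^e+1)) = 0 := by
    refine pow_eq_zero_of_le hle ?_
    ext w
    have := hpow (2*p^e+1) w
    rw [hG] at this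
    simpa using this
  rw [sub_pow_char_pow_of_commute p _ (Commute.one_right _), one_pow, sub_eq_zero, ← map_pow] at hz
  ext w
  have := congrArg (fun f : End K W => f w) hz
  exact this

end chain

section eigen
variable {K W : Type*} [Field K] [Fintype K] [AddCommGroup W] [Module K W]

lemma prod_X_sub_C_eq_finiteField :
    (∏ x : K, (X - C x) : K[X]) = X ^ Fintype.card K - X := by
  have hm : (X ^ Fintype.card K - X : K[X]).Monic := by
    apply monic_X_pow_sub
    rw [degree_X]
    exact_mod_cast (Fintype.one_lt_card : 1 < Fintype.card K)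
  have h1 := prod_multiset_X_sub_C_of_monic_of_roots_card_eq hm (by
    rw [FiniteField.roots_X_pow_card_sub_X,
      FiniteField.X_pow_card_sub_X_natDegree_eq K (Fintype.one_lt_card : 1 < Fintype.card K)]
    rfl)
  rw [FiniteField.roots_X_pow_card_sub_X] at h1
  exact h1

/-- An operator with `c^q=c`, `c≠1`, has an eigenvector with eigenvalue `≠1`. -/
lemma exists_eigen_of_pow_card {c : End K W} (hc : c ^ (Fintype.card K) = c) (hne : c ≠ 1) :
    ∃ x : K, x ≠ 1 ∧ ∃ v : W, v ≠ 0 ∧ c v = x • v := by
  classical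
  by_contra hcon
  push Not at hcon
  have hinj : ∀ s : Finset K, (1:K) ∉ s →
      Function.Injective (aeval c (∏ x ∈ s, (X - C x)) : End K W) := by
    intro s
    induction s using Finset.induction_on with
    | empty =>
      intro _
      simp only [Finset.prod_empty, map_one]
      exact fun _ _ h => h
    | insert y s hy ih =>
      intro h1
      have hy1 : y ≠ 1 := fun h => h1 (by simp [h])
      have hs1 : (1:K) ∉ s := fun h => h1 (Finset.mem_insert_of_mem h)
      rw [Finset.prod_insert hy, map_mul, Module.End.mul_eq_comp, LinearMap.coe_comp]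
      refine Function.Injective.comp ?_ (ih hs1)
      rw [injective_iff_map_eq_zero]
      intro w hw
      by_contra hw0
      refine hcon y hy1 w hw0 ?_
      simp only [map_sub, aeval_X, aeval_C, LinearMap.sub_apply, Module.algebraMap_end_apply] at hw
      exact sub_eq_zero.mp hw
  have h0 : aeval c (X ^ Fintype.card K - X : K[X]) = 0 := by
    simp [hc]
  rw [← prod_X_sub_C_eq_finiteField, ← Finset.prod_erase_mul _ _ (Finset.mem_univ (1:K)),
    map_mul] at h0
  apply hne
  have h2 := hinj (Finset.univ.erase 1) (by simp)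
  ext w
  have h3 := congrArg (fun f : End K W => f w) h0
  simp only [Module.End.mul_apply, map_sub, aeval_X, aeval_C, LinearMap.sub_apply,
    Module.algebraMap_end_apply, one_smul, LinearMap.zero_apply] at h3
  exact h2 (sub_eq_zero.mp h3)

end eigen

/-- The homomorphism to `SL(2,K)` from two quadratically acting generators. -/
theorem exists_sl2_of_quadratic {K W : Type*} [Field K] [Fintype K] {p : ℕ} [Fact p.Prime]
    [CharP K p] [AddCommGroup W] [Module K W] [Nontrivial W]
    (H : Subgroup (W ≃ₗ[K] W)) (a b : W ≃ₗ[K] W) (hH : H = Subgroup.closure {a, b})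
    (ha : ∀ w : W, a (a w - w) = a w - w) (hb : ∀ w : W, b (b w - w) = b w - w)
    (hnp : ¬ IsPGroup p H)
    (hk : ∃ e k : ℕ, orderOf (a * b) = p ^ e * k ∧ k ∣ Fintype.card K - 1) :
    ∃ φ : H →* Matrix.SpecialLinearGroup (Fin 2) K, ¬ IsPGroup p φ.range := by
  classical
  obtain ⟨e, k, hord, hkd⟩ := hk
  have hch : CharP (End K W) p := by
    obtain ⟨x, hx⟩ := exists_ne (0:W)
    refine Module.charP_end ⟨x, ?_⟩
    rw [eq_bot_iff]
    intro r hr
    rw [Ideal.mem_torsionOf_iff] at hr
    rw [Ideal.mem_bot]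
    by_contra h
    exact hx ((smul_eq_zero.mp hr).resolve_left h)
  set ι : (W ≃ₗ[K] W) →* End K W := LinearEquiv.automorphismGroup.toLinearMapMonoidHom with hι
  have ιa : ∀ (g : W ≃ₗ[K] W) w, ι g w = g w := fun _ _ => rfl
  have hq1 : 1 ≤ Fintype.card K := Fintype.card_pos
  set g₀ : W ≃ₗ[K] W := (a*b)^(p^e) with hg₀
  have hone : g₀^(Fintype.card K - 1) = 1 := by
    rw [hg₀, ← pow_mul]
    exact orderOf_dvd_iff_pow_eq_one.mp (by rw [hord]; exact mul_dvd_mul_left _ hkd)
  have hne : g₀ ≠ 1 := fun h => hnp (isPGroup_of_quadratic_unipotent H a b hH ha hb e h)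
  have hcq : (ι g₀)^(Fintype.card K) = ι g₀ := by
    rw [← map_pow]
    congr 1
    conv_lhs => rw [← Nat.sub_add_cancel hq1, pow_succ, hone, one_mul]
  have hc1 : ι g₀ ≠ 1 := by
    intro h
    apply hne
    ext w
    have := congrArg (fun f : End K W => f w) h
    exact this
  obtain ⟨x, hx1, v₀, hv₀, hcv⟩ := exists_eigen_of_pow_card hcq hc1
  obtain ⟨l, hl⟩ := (bijective_iterateFrobenius K p e).2 x
  rw [iterateFrobenius_def] at hl
  set T : End K W := ι (a*b) with hTd
  have hT0 : ∀ n, ι ((a*b)^n) = T^n := fun n => map_pow _ _ _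
  have hpow : (T - l • (1 : End K W))^(p^e) = ι g₀ - x • 1 := by
    rw [sub_pow_char_pow_of_commute p e (Commute.smul_right (Commute.one_right T) l), _root_.smul_pow,
      one_pow, hl, hg₀, hT0]
  have hl1 : l ≠ 1 := by
    rintro rfl
    exact hx1 (by rw [← hl, one_pow])
  obtain ⟨v, hv, hTv⟩ : ∃ v : W, v ≠ 0 ∧ a (b v) = l • v := by
    by_contra hcon
    push Not at hcon
    have hinj : Function.Injective (T - l • (1 : End K W)) := by
      rw [injective_iff_map_eq_zero]
      intro w hw
      by_contra hw0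
      refine hcon w hw0 ?_
      have : T w - l • w = 0 := by simpa using hw
      exact sub_eq_zero.mp this
    have hinj2 : Function.Injective ((T - l • (1 : End K W))^(p^e)) := by
      rw [Module.End.coe_pow]
      exact hinj.iterate _
    rw [hpow] at hinj2
    apply hv₀
    apply hinj2
    simp [hcv]
  obtain ⟨m, hm⟩ : ∃ m : K, l * m = 1 := by
    refine ⟨l⁻¹, mul_inv_cancel₀ ?_⟩
    rintro rfl
    rw [zero_smul] at hTv
    exact hv (b.injective (a.injective (by simpa using hTv)))
  set u : W := a v with hu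
  have qa : ∀ w, a (a w) = (2:K) • a w - w := by
    intro w
    have := ha w
    rw [map_sub, sub_eq_iff_eq_add] at this
    rw [this, two_smul]
    abel
  have qb : ∀ w, b (b w) = (2:K) • b w - w := by
    intro w
    have := hb w
    rw [map_sub, sub_eq_iff_eq_add] at this
    rw [this, two_smul]
    abel
  have h1 : a u = (2:K) • u - v := qa v
  have h2 : b v = (2*l) • v - l • u := by
    apply a.injective
    rw [hTv, map_sub, map_smul, map_smul, h1]
    module
  have h3 : l • b u = (2*l-2) • b v + v := by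
    have h4 := qb v
    have h5 : b (b v) = (2*l) • b v - l • b u := by
      conv_lhs => rw [h2]
      rw [map_sub, map_smul, map_smul]
    have h6 : (2*l) • b v - l • b u = (2:K) • b v - v := h5.symm.trans h4
    calc l • b u = (2*l) • b v - ((2*l) • b v - l • b u) := by abel
      _ = (2*l) • b v - ((2:K) • b v - v) := by rw [h6]
      _ = _ := by module
  have h4 : b u = (4*l-4+m) • v + (2-2*l) • u := by
    have hinj : Function.Injective (fun w : W => l • w) := by
      intro w₁ w₂ hw
      have := congrArg (fun w => m • w) hw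
      simpa [smul_smul, mul_comm m l, hm] using this
    apply hinj
    show l • b u = l • ((4*l-4+m) • v + (2-2*l) • u)
    rw [h3, h2]
    have e1 : l • ((4*l-4+m) • v + (2-2*l) • u) =
        (4*l*l-4*l+1) • v + (2*l-2*l*l) • u := by
      rw [smul_add, smul_smul, smul_smul]
      congr 2
      · linear_combination hm
      · ring
    rw [e1]
    module
  have hindep : ∀ s t : K, s • v + t • u = 0 → s = 0 ∧ t = 0 := by
    intro s t hst
    have ht : t = 0 := by
      by_contra ht
      -- u is a multiple of v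
      set r : K := -(s * t⁻¹) with hr
      have hur : u = r • v := by
        have : t • u = (-s) • v := by
          rw [neg_smul]; exact eq_neg_of_add_eq_zero_right hst
        have h5 := congrArg (fun w => t⁻¹ • w) this
        simp only [smul_smul, inv_mul_cancel₀ ht, one_smul] at h5
        rw [h5, hr]
        congr 1
        ring
      have h5 := h1
      rw [hur, map_smul] at h5
      rw [← hu, hur] at h5
      have h6 : ((r-1)*(r-1)) • v = 0 := by
        have : (r*r) • v = (2*r-1) • v := by
          rw [mul_smul, h5]; module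
        have h7 : ((r-1)*(r-1)) • v = (r*r) • v - (2*r-1) • v := by module
        rw [h7, this, sub_self]
      have hr1 : r = 1 := by
        rcases smul_eq_zero.mp h6 with h | h
        · rcases mul_self_eq_zero.mp h with h
          exact sub_eq_zero.mp h
        · exact absurd h hv
      have huv : u = v := by rw [hur, hr1, one_smul]
      have h8 : b v = l • v := by
        rw [h2, huv]; module
      have h9 := qb v
      rw [h8, map_smul, h8] at h9
      have h10 : ((l-1)*(l-1)) • v = 0 := by
        have h7 : ((l-1)*(l-1)) • v = l • l • v - ((2:K) • l • v - v) := by module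
        rw [h7, h9, sub_self]
      rcases smul_eq_zero.mp h10 with h | h
      · rcases mul_self_eq_zero.mp h with h
        exact hl1 (sub_eq_zero.mp h)
      · exact hv h
    subst ht
    refine ⟨?_, rfl⟩
    rw [zero_smul, add_zero] at hst
    exact (smul_eq_zero.mp hst).resolve_right hv
  -- the matrices
  let J : (Fin 2 → K) → W := fun x => x 0 • v + x 1 • u
  have hJinj : Function.Injective J := by
    intro x y hxy
    have h5 : (x 0 - y 0) • v + (x 1 - y 1) • u = 0 := by
      have : x 0 • v + x 1 • u = y 0 • v + y 1 • u := hxy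
      rw [sub_smul, sub_smul]
      have h6 : x 0 • v - y 0 • v + (x 1 • u - y 1 • u) = (x 0 • v + x 1 • u) - (y 0 • v + y 1 • u) := by
        abel
      rw [h6, this, sub_self]
    obtain ⟨h6, h7⟩ := hindep _ _ h5
    ext i
    fin_cases i
    · exact sub_eq_zero.mp h6
    · exact sub_eq_zero.mp h7
  let A : Matrix.SpecialLinearGroup (Fin 2) K := ⟨!![0, -1; 1, 2], by
    simp [Matrix.det_fin_two]⟩
  let B : Matrix.SpecialLinearGroup (Fin 2) K := ⟨!![2*l, 4*l-4+m; -l, 2-2*l], by
    simp only [Matrix.det_fin_two, Matrix.of_apply, Matrix.cons_val', Matrix.cons_val_zero,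
      Matrix.cons_val_one, Matrix.cons_val_fin_one]
    linear_combination hm⟩
  have key : ∀ h ∈ H, ∃ M : Matrix.SpecialLinearGroup (Fin 2) K,
      ∀ x, h (J x) = J ((M : Matrix (Fin 2) (Fin 2) K).mulVec x) := by
    intro h hh
    rw [hH] at hh
    induction hh using Subgroup.closure_induction with
    | mem y hy =>
      rcases hy with rfl | hy
      · refine ⟨A, fun x => ?_⟩
        simp only [J, A, map_add, map_smul, h1]
        simp [Matrix.mulVec, dotProduct, Fin.sum_univ_two, ← hu]
        module
      · rw [show y = b from hy]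
        refine ⟨B, fun x => ?_⟩
        simp only [J, B, map_add, map_smul, h2, h4]
        simp [Matrix.mulVec, dotProduct, Fin.sum_univ_two]
        module
    | one => exact ⟨1, fun x => by simp⟩
    | mul y z _ _ hy hz =>
      obtain ⟨M, hM⟩ := hy
      obtain ⟨N, hN⟩ := hz
      refine ⟨M*N, fun x => ?_⟩
      rw [LinearEquiv.mul_apply, hN, hM, Matrix.mulVec_mulVec, Matrix.SpecialLinearGroup.coe_mul]
    | inv y _ hy =>
      obtain ⟨M, hM⟩ := hy
      refine ⟨M⁻¹, fun x => ?_⟩
      apply y.injective
      rw [← LinearEquiv.mul_apply, mul_inv_cancel, hM, Matrix.mulVec_mulVec,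
        ← Matrix.SpecialLinearGroup.coe_mul, mul_inv_cancel]
      simp
  have huniq : ∀ (M N : Matrix.SpecialLinearGroup (Fin 2) K),
      (∀ x, J ((M : Matrix (Fin 2) (Fin 2) K).mulVec x) = J ((N : Matrix (Fin 2) (Fin 2) K).mulVec x)) → M = N := by
    intro M N hMN
    apply Subtype.ext
    apply Matrix.ext_of_mulVec_single
    intro i
    exact hJinj (hMN _)
  choose φ₀ hφ₀ using fun h : H => key h.1 h.2
  have hφ₀mul : ∀ h₁ h₂ : H, φ₀ (h₁*h₂) = φ₀ h₁ * φ₀ h₂ := by
    intro h₁ h₂
    apply huniq
    intro x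
    rw [← hφ₀, Subgroup.coe_mul, LinearEquiv.mul_apply, hφ₀, hφ₀, Matrix.mulVec_mulVec,
      Matrix.SpecialLinearGroup.coe_mul]
  refine ⟨MonoidHom.mk' φ₀ hφ₀mul, ?_⟩
  intro hp
  have habH : a * b ∈ H := by
    rw [hH]
    exact Subgroup.mul_mem _ (Subgroup.subset_closure (by simp)) (Subgroup.subset_closure (by simp))
  let t : H := ⟨a*b, habH⟩
  obtain ⟨n, hn⟩ := hp ⟨MonoidHom.mk' φ₀ hφ₀mul t, ⟨t, rfl⟩⟩
  have hn' : φ₀ (t^(p^n)) = 1 := by
    have := congrArg Subtype.val hn
    have h5 := (MonoidHom.mk' φ₀ hφ₀mul).map_pow t (p^n)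
    simpa using h5.trans this
  have h6 := hφ₀ (t^(p^n)) ![1,0]
  rw [hn'] at h6
  have hJ1 : J ![1,0] = v := by simp [J]
  simp only [Matrix.SpecialLinearGroup.coe_one, Matrix.one_mulVec, hJ1] at h6
  have h7 : ∀ i : ℕ, ((a*b)^i) v = l^i • v := by
    intro i
    induction i with
    | zero => simp
    | succ i ih =>
      rw [pow_succ, LinearEquiv.mul_apply, LinearEquiv.mul_apply, hTv, map_smul, ih, smul_smul,
        pow_succ, mul_comm]
  have h8 : ((a*b)^(p^n)) v = v := by
    simpa using h6
  rw [h7] at h8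
  have h9 : (l^(p^n) - 1) • v = 0 := by
    rw [sub_smul, one_smul, h8, sub_self]
  have h10 : l^(p^n) = 1 := sub_eq_zero.mp ((smul_eq_zero.mp h9).resolve_right hv)
  have h11 : (l-1)^(p^n) = 0 := by
    rw [sub_pow_char_pow_of_commute p n (Commute.one_right l), h10, one_pow, sub_self]
  exact hl1 (sub_eq_zero.mp (pow_eq_zero_iff (pow_ne_zero _ (Fact.out : p.Prime).ne_zero) |>.mp h11))

end Cfsg.Agent.Lib.PLocal
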