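import Mathlib
import Cfsg.Prelude.Def_PLocal

/-! Quadratic action on elementary abelian groups. -/

set_option autoImplicit false

namespace Cfsg.Agent.Lib.PLocal

open Subgroup
open scoped commutatorElement

variable {G : Type*} [Group G]

/-- Quadratic action forces the group modulo the kernel to be elementary abelian. -/
theorem quadratic_elementary {p : ℕ} (V H : Subgroup G) (hV : Cfsg.IsElementaryAbelian p V)
    (hHV : H ≤ normalizer (V : Set G)) (hq : ⁅⁅V, H⁆, H⁆ = ⊥) :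
    ⁅H, H⁆ ≤ centralizer (V : Set G) ∧ ∀ a ∈ H, a ^ p ∈ centralizer (V : Set G) := by
  have hcomm : ∀ x ∈ V, ∀ y ∈ V, x * y = y * x := by
    intro x hx y hy
    have := hV.1.is_comm.comm (⟨x, hx⟩ : V) ⟨y, hy⟩
    exact congrArg (Subtype.val : ↥V → G) this
  have hN : ∀ a ∈ H, ∀ v ∈ V, a * v * a⁻¹ ∈ V := fun a ha v hv =>
    (mem_normalizer_iff.mp (hHV ha) v).mp hv
  have hdV : ∀ a ∈ H, ∀ v ∈ V, a * v * a⁻¹ * v⁻¹ ∈ V := fun a ha v hv =>
    V.mul_mem (hN a ha v hv) (V.inv_mem hv)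
  have hfix : ∀ a ∈ H, ∀ v ∈ V, ∀ b ∈ H, b * (a * v * a⁻¹ * v⁻¹) = (a * v * a⁻¹ * v⁻¹) * b := by
    intro a ha v hv b hb
    have h1 : ⁅v, a⁆ ∈ ⁅V, H⁆ := commutator_mem_commutator hv ha
    have h2 : ⁅⁅v, a⁆, b⁆ ∈ ⁅⁅V, H⁆, H⁆ := commutator_mem_commutator h1 hb
    rw [hq, mem_bot, commutatorElement_eq_one_iff_mul_comm] at h2
    have h3 : (a * v * a⁻¹ * v⁻¹) = ⁅v, a⁆⁻¹ := by
      rw [commutatorElement_def]; group
    rw [h3]
    have h4 : Commute ⁅v, a⁆ b := h2
    exact (h4.inv_left.symm).eq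
  have hact : ∀ a ∈ H, ∀ v ∈ V, a * v * a⁻¹ = (a * v * a⁻¹ * v⁻¹) * v := by
    intro a _ v _
    group
  constructor
  · have hconj : ∀ a ∈ H, ∀ b ∈ H, ∀ v ∈ V, a * b * v * b⁻¹ * a⁻¹ = b * a * v * a⁻¹ * b⁻¹ := by
      intro a ha b hb v hv
      set da := a * v * a⁻¹ * v⁻¹ with hda
      set db := b * v * b⁻¹ * v⁻¹ with hdb
      have hdaV : da ∈ V := hdV a ha v hv
      have hdbV : db ∈ V := hdV b hb v hv
      have h1 : a * b * v * b⁻¹ * a⁻¹ = db * da * v := by
        calc a * b * v * b⁻¹ * a⁻¹ = a * (b * v * b⁻¹) * a⁻¹ := by group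
          _ = a * (db * v) * a⁻¹ := by rw [hact b hb v hv]
          _ = (a * db) * v * a⁻¹ := by group
          _ = (db * a) * v * a⁻¹ := by rw [hfix b hb v hv a ha]
          _ = db * (a * v * a⁻¹) := by group
          _ = db * (da * v) := by rw [hact a ha v hv]
          _ = _ := by group
      have h2 : b * a * v * a⁻¹ * b⁻¹ = da * db * v := by
        calc b * a * v * a⁻¹ * b⁻¹ = b * (a * v * a⁻¹) * b⁻¹ := by group
          _ = b * (da * v) * b⁻¹ := by rw [hact a ha v hv]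
          _ = (b * da) * v * b⁻¹ := by group
          _ = (da * b) * v * b⁻¹ := by rw [hfix a ha v hv b hb]
          _ = da * (b * v * b⁻¹) := by group
          _ = da * (db * v) := by rw [hact b hb v hv]
          _ = _ := by group
      rw [h1, h2, hcomm db hdbV da hdaV]
    rw [commutator_le]
    intro a ha b hb
    rw [mem_centralizer_iff]
    intro v hv
    have h3 := hconj a⁻¹ (H.inv_mem ha) b⁻¹ (H.inv_mem hb) v hv
    rw [commutatorElement_def]
    calc v * (a * b * a⁻¹ * b⁻¹) = a * b * (a⁻¹ * (b⁻¹ * v * b) * a) * a⁻¹ * b⁻¹ := by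
          rw [show a⁻¹ * (b⁻¹ * v * b) * a = a⁻¹ * b⁻¹ * v * (b⁻¹)⁻¹ * (a⁻¹)⁻¹ by group, h3]; group
      _ = _ := by group
  · intro a ha
    rw [mem_centralizer_iff]
    intro v hv
    set d := a * v * a⁻¹ * v⁻¹ with hd
    have hdV' : d ∈ V := hdV a ha v hv
    have hcd : a * d = d * a := hfix a ha v hv a ha
    have hk : ∀ k : ℕ, a ^ k * v * (a ^ k)⁻¹ = d ^ k * v := by
      intro k
      induction k with
      | zero => simp
      | succ k ih =>
        have hcd' : Commute a (d ^ k) := (show Commute a d from hcd).pow_right k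
        calc a ^ (k + 1) * v * (a ^ (k + 1))⁻¹ = a * (a ^ k * v * (a ^ k)⁻¹) * a⁻¹ := by
              rw [pow_succ']; group
          _ = a * (d ^ k * v) * a⁻¹ := by rw [ih]
          _ = (a * d ^ k) * v * a⁻¹ := by group
          _ = (d ^ k * a) * v * a⁻¹ := by rw [hcd'.eq]
          _ = d ^ k * (a * v * a⁻¹) := by group
          _ = d ^ k * (d * v) := by rw [hact a ha v hv]
          _ = d ^ (k + 1) * v := by rw [pow_succ]; group
    have h1 := hk p
    rw [hV.2 d hdV', one_mul] at h1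
    calc v * a ^ p = (a ^ p * v * (a ^ p)⁻¹) * a ^ p := by rw [h1]
      _ = a ^ p * v := by group

/-- A quadratically acting element has at least a square root of the order of `V` as fixed points. -/
theorem card_le_fixed_sq [Finite G] {p : ℕ} (V : Subgroup G) (hV : Cfsg.IsElementaryAbelian p V) (a : G)
    (ha : a ∈ normalizer (V : Set G)) (hq : ⁅⁅V, zpowers a⁆, zpowers a⁆ = ⊥) :
    Nat.card V ≤ Nat.card ↥(V ⊓ centralizer (zpowers a : Set G)) ^ 2 := by
  have hcomm : ∀ x ∈ V, ∀ y ∈ V, x * y = y * x := by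
    intro x hx y hy
    have := hV.1.is_comm.comm (⟨x, hx⟩ : V) ⟨y, hy⟩
    exact congrArg (Subtype.val : ↥V → G) this
  have hN : ∀ v ∈ V, a * v * a⁻¹ ∈ V := fun v hv => (mem_normalizer_iff.mp ha v).mp hv
  set K := V ⊓ centralizer (zpowers a : Set G) with hK
  have hmemK : ∀ v ∈ V, a * v = v * a → v ∈ K := by
    intro v hv h
    refine ⟨hv, mem_centralizer_iff.mpr ?_⟩
    intro z hz
    obtain ⟨k, rfl⟩ := Subgroup.mem_zpowers_iff.mp hz
    exact ((show Commute a v from h).zpow_left k).eq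
  let f : V →* V := MonoidHom.mk' (fun v => ⟨a * v * a⁻¹ * (v : G)⁻¹, V.mul_mem (hN v v.2) (V.inv_mem v.2)⟩) (by
    rintro ⟨u, hu⟩ ⟨v, hv⟩
    apply Subtype.ext
    show a * (u * v) * a⁻¹ * (u * v)⁻¹ = (a * u * a⁻¹ * u⁻¹) * (a * v * a⁻¹ * v⁻¹)
    have h1 := hcomm _ (V.mul_mem (hN v hv) (V.inv_mem hv)) _ (V.inv_mem hu)
    calc a * (u * v) * a⁻¹ * (u * v)⁻¹ = (a * u * a⁻¹) * ((a * v * a⁻¹ * v⁻¹) * u⁻¹) := by
          rw [mul_inv_rev]; group
      _ = (a * u * a⁻¹) * (u⁻¹ * (a * v * a⁻¹ * v⁻¹)) := by rw [h1]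
      _ = _ := by group)
  have hcard : Nat.card V = Nat.card f.ker * Nat.card f.range := by
    rw [← Subgroup.index_ker, Subgroup.card_mul_index]
  have hker : Nat.card f.ker ≤ Nat.card K := by
    apply Nat.card_le_card_of_injective (fun v : f.ker => (⟨((v : V) : G), by
      have hv := v.2
      rw [MonoidHom.mem_ker] at hv
      have h1 : a * ((v : V) : G) * a⁻¹ * ((v : V) : G)⁻¹ = 1 := congrArg Subtype.val hv
      apply hmemK _ (v : V).2
      calc a * ((v : V) : G) = (a * ((v : V) : G) * a⁻¹ * ((v : V) : G)⁻¹) * (((v : V) : G) * a) := by group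
        _ = _ := by rw [h1, one_mul]⟩ : K))
    intro x y hxy
    apply Subtype.ext
    apply Subtype.ext
    exact congrArg (Subtype.val : ↥K → G) hxy
  have hrange : Nat.card f.range ≤ Nat.card K := by
    apply Nat.card_le_card_of_injective (fun v : f.range => (⟨((v : V) : G), by
      obtain ⟨w, hw⟩ := v.2
      have h1 : ((v : V) : G) = a * (w : G) * a⁻¹ * (w : G)⁻¹ := by rw [← hw]; rfl
      rw [h1]
      have h2 : ⁅(w : G), a⁆ ∈ ⁅V, zpowers a⁆ := commutator_mem_commutator w.2 (mem_zpowers a)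
      have h3 : ⁅⁅(w : G), a⁆, a⁆ ∈ ⁅⁅V, zpowers a⁆, zpowers a⁆ := commutator_mem_commutator h2 (mem_zpowers a)
      rw [hq, mem_bot, commutatorElement_eq_one_iff_mul_comm] at h3
      have h4 : a * (w : G) * a⁻¹ * (w : G)⁻¹ = ⁅(w : G), a⁆⁻¹ := by
        rw [commutatorElement_def]; group
      apply hmemK _ (V.mul_mem (hN w w.2) (V.inv_mem w.2))
      rw [h4]
      exact ((show Commute ⁅(w : G), a⁆ a from h3).inv_left.symm).eq⟩ : K))
    intro x y hxy
    apply Subtype.ext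
    apply Subtype.ext
    exact congrArg (Subtype.val : ↥K → G) hxy
  rw [hcard, sq]
  exact Nat.mul_le_mul hker hrange

end Cfsg.Agent.Lib.PLocal
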