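import Mathlib
import Cfsg.Prelude.Def_PLocal
import Cfsg.Agent.Lib.PLocal.ZJ2
import Cfsg.Agent.Lib.PLocal.ThompsonMap
import Cfsg.Agent.Lib.OddLocal.PGroup
import Cfsg.Agent.Lib.PGroups.Parts

/-! Glauberman's ZJ-theorem for the Thompson subgroup generated by the elementary abelian subgroups
of largest order: `Z(J_e(P))` is normal in a group `G` which is `p`-stable on its normal `p`-subgroups
and with `C_G(O_p(G)) ≤ O_p(G)`. -/

set_option autoImplicit false
set_option linter.unusedSectionVars false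
set_option linter.style.haveILetI false

namespace Cfsg.Agent.Lib.PLocal

open Subgroup Cfsg
open scoped commutatorElement

variable {G : Type*} [Group G] [Finite G] {p : ℕ} [Fact p.Prime]

/-- A `p'`-part argument: if `D` contains the elements of order `p` of `B`, then elements of `O_p` modulo
`C(D)` are in `O_p` modulo `C(B)`. -/
theorem mem_pCore_of_omega (hp : p ≠ 2) (B D : Subgroup G) [hBn : B.Normal] [hDn : D.Normal]
    (hBp : IsPGroup p B) (hD : ∀ x ∈ B, x ^ p = 1 → x ∈ D) {a : G}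
    (ha : (QuotientGroup.mk a : G ⧸ centralizer (D : Set G)) ∈ pCore p (G ⧸ centralizer (D : Set G))) :
    (QuotientGroup.mk a : G ⧸ centralizer (B : Set G)) ∈ pCore p (G ⧸ centralizer (B : Set G)) := by
  classical
  set CD : Subgroup G := centralizer (D : Set G) with hCD
  set CB : Subgroup G := centralizer (B : Set G) with hCB
  haveI hCDn : CD.Normal := inferInstance
  haveI hCBn : CB.Normal := inferInstance
  let Y : Subgroup G := (pCore p (G ⧸ CD)).comap (QuotientGroup.mk' CD)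
  haveI hYn : Y.Normal := by
    haveI : (pCore p (G ⧸ CD)).Normal := Cfsg.Agent.Lib.Basic.pCore_normal p
    exact Subgroup.Normal.comap this _
  have hmain : Y.map (QuotientGroup.mk' CB) ≤ pCore p (G ⧸ CB) := by
    refine Cfsg.Agent.Lib.Basic.le_pCore (hYn.map _ (QuotientGroup.mk'_surjective CB)) ?_
    rintro ⟨_, y, hy, rfl⟩
    obtain ⟨u, v, hyuv, -, ⟨k, hk⟩, hv, hu', hv'⟩ := Cfsg.Agent.Lib.PGroups.exists_pPart p y
    have hvY : v ∈ Y := by
      have : zpowers y ≤ Y := by rwa [Subgroup.zpowers_le]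
      exact this hv'
    have hvC : v ∈ CD := by
      have h1 : (QuotientGroup.mk' CD v) ∈ pCore p (G ⧸ CD) := hvY
      obtain ⟨m, hm⟩ := Cfsg.Agent.Lib.Basic.pCore_isPGroup (G := G ⧸ CD) p ⟨_, h1⟩
      have h2 : (QuotientGroup.mk' CD v) ^ (p ^ m) = 1 := by
        have := congrArg (Subtype.val : ↥(pCore p (G ⧸ CD)) → G ⧸ CD) hm
        simpa using this
      have h3 : (QuotientGroup.mk' CD v) ^ (orderOf v) = 1 := by
        rw [← map_pow, pow_orderOf_eq_one, map_one]
      have hcop : Nat.Coprime (p ^ m) (orderOf v) :=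
        Nat.Coprime.pow_left m ((Nat.Prime.coprime_iff_not_dvd Fact.out).mpr hv)
      have h4 : orderOf (QuotientGroup.mk' CD v) ∣ Nat.gcd (p ^ m) (orderOf v) :=
        Nat.dvd_gcd (orderOf_dvd_of_pow_eq_one h2) (orderOf_dvd_of_pow_eq_one h3)
      rw [hcop.gcd_eq_one, Nat.dvd_one, orderOf_eq_one_iff, QuotientGroup.mk'_apply,
        QuotientGroup.eq_one_iff] at h4
      exact h4
    have hvB : v ∈ CB := by
      have hcop : (orderOf v).Coprime p :=
        ((Nat.Prime.coprime_iff_not_dvd Fact.out).mpr hv).symm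
      have h5 := Cfsg.Agent.Lib.OddLocal.fix_of_fix_omega p hp v hcop B hBp
        (fun x hx => hBn.conj_mem x hx v) (fun x hx hxp => ?_)
      · rw [hCB, mem_centralizer_iff]
        intro x hx
        have h6 := h5 x hx
        calc x * v = v * x * v⁻¹ * v := by rw [h6]
          _ = v * x := by group
      · have h7 := (mem_centralizer_iff.mp hvC) x (hD x hx hxp)
        rw [← h7]
        group
    have h8 : QuotientGroup.mk' CB v = 1 := by
      rw [QuotientGroup.mk'_apply, QuotientGroup.eq_one_iff]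
      exact hvB
    refine ⟨k, Subtype.ext ?_⟩
    show (QuotientGroup.mk' CB y) ^ (p ^ k) = 1
    rw [hyuv, map_mul, h8, mul_one, ← hk, ← map_pow, pow_orderOf_eq_one, map_one]
  have hay : a ∈ Y := ha
  exact hmain ⟨a, hay, rfl⟩

/-- The Frattini decomposition modulo a normal subgroup `C`. -/
theorem frattini_dec (S : Sylow p G) (C : Subgroup G) [hCn : C.Normal] (g : G) :
    ∃ c ∈ C, ∃ n ∈ normalizer (((S : Subgroup G) ⊓ (pCore p (G ⧸ C)).comap (QuotientGroup.mk' C) :
      Subgroup G) : Set G), g = c * n := by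
  set R : Subgroup G := (pCore p (G ⧸ C)).comap (QuotientGroup.mk' C) with hRdef
  haveI hRn : R.Normal := by
    haveI : (pCore p (G ⧸ C)).Normal := Cfsg.Agent.Lib.Basic.pCore_normal p
    exact Subgroup.Normal.comap this _
  have hCR : C ≤ R := by
    intro c hc
    have h1 : (QuotientGroup.mk' C) c = 1 := by
      rw [QuotientGroup.mk'_apply, QuotientGroup.eq_one_iff]
      exact hc
    show (QuotientGroup.mk' C) c ∈ pCore p (G ⧸ C)
    rw [h1]
    exact one_mem _
  have hPRn : (S : Subgroup G) ≤ normalizer (R : Set G) := by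
    rw [Subgroup.normalizer_eq_top_iff.mpr hRn]
    exact le_top
  obtain ⟨Q, hQ⟩ := Cfsg.Agent.Lib.LocalEven.exists_sylow_inf_of_normalizes S hPRn
  have h1 := Sylow.normalizer_sup_eq_top Q
  have h2 : (Q : Subgroup ↥R).map R.subtype = (S : Subgroup G) ⊓ R := by
    rw [hQ, Subgroup.subgroupOf_map_subtype, inf_assoc, inf_idem]
  rw [h2] at h1
  have hg : g ∈ (normalizer (((S : Subgroup G) ⊓ R : Subgroup G) : Set G)) ⊔ R := by
    rw [h1]
    trivial
  have hg' : g ∈ ((R ⊔ normalizer (((S : Subgroup G) ⊓ R : Subgroup G) : Set G) : Subgroup G) : Set G) := by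
    rw [sup_comm]
    exact hg
  rw [Subgroup.normal_mul] at hg'
  obtain ⟨r, hr, n, hn, rfl⟩ := Set.mem_mul.mp hg'
  obtain ⟨t, ht, c, hcC, hrtc⟩ := exists_mem_mul_of_mem_pCore C S (x := r) hr
  have htR : t ∈ R := by
    have : t = r * c⁻¹ := by rw [hrtc]; group
    rw [this]
    exact R.mul_mem hr (R.inv_mem (hCR hcC))
  refine ⟨t * c * t⁻¹, hCn.conj_mem c hcC t, t * n, ?_, ?_⟩
  · exact Subgroup.mul_mem _ (Subgroup.le_normalizer ⟨ht, htR⟩) hn
  · rw [hrtc]
    show t * c * n = t * c * t⁻¹ * (t * n)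
    group

/-- Conjugates of largest elementary abelian subgroups. -/
lemma maxEA_conj {A : Subgroup G} (hA : A ∈ maxElementaryAbelianSubgroups p G) (n : G) :
    A.map (MulAut.conj n).toMonoidHom ∈ maxElementaryAbelianSubgroups p G := by
  refine ⟨isEA_map _ hA.1, fun B hB => ?_⟩
  rw [card_map_of_injective (MulAut.conj n).injective]
  have h1 := hA.2 _ (isEA_map (MulAut.conj n⁻¹).toMonoidHom hB)
  rwa [card_map_of_injective (MulAut.conj n⁻¹).injective] at h1

/-- The replacement step inside a Sylow subgroup. -/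
theorem ea_replacement (S : Sylow p G) (hp : p ≠ 2) (B A : Subgroup G) (hBS : B ≤ S)
    (hBn : (S : Subgroup G) ≤ normalizer (B : Set G)) (hA : A ∈ maxElementaryAbelianSubgroups p G)
    (hAS : A ≤ S) (hBA : ⁅B, B⁆ ≤ A) (hn : ¬ B ≤ normalizer (A : Set G)) :
    ∃ A' ∈ maxElementaryAbelianSubgroups p G, A' ≤ S ∧ Nat.card ↥(A ⊓ B) < Nat.card ↥(A' ⊓ B) ∧
      A' ≤ normalizer (A : Set G) := by
  classical
  set T : Subgroup G := (S : Subgroup G) with hT
  have hTp : IsPGroup p ↥T := S.isPGroup'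
  let B' : Subgroup ↥T := B.subgroupOf T
  haveI hB'n : B'.Normal := (Subgroup.normal_subgroupOf_iff_le_normalizer hBS).mpr hBn
  let A0 : Subgroup ↥T := A.subgroupOf T
  have hA0c : IsMulCommutative A0 := by
    refine ⟨⟨?_⟩⟩
    rintro ⟨⟨x, hxT⟩, hx⟩ ⟨⟨y, hyT⟩, hy⟩
    apply Subtype.ext
    apply Subtype.ext
    exact hA.1.1.is_comm.comm ⟨x, hx⟩ ⟨y, hy⟩ |> congrArg (Subtype.val : ↥A → G)
  have hB'A0 : ⁅B', B'⁆ ≤ A0 := by
    rw [Subgroup.commutator_le]
    intro x hx y hy
    have h1 : ⁅(x : G), (y : G)⁆ ∈ A := hBA (Subgroup.commutator_mem_commutator hx hy)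
    exact h1
  have hnB : ¬ B' ≤ normalizer (A0 : Set ↥T) := by
    intro hle
    apply hn
    intro x hx
    have hxB : (⟨x, hBS hx⟩ : ↥T) ∈ B' := hx
    have h1 := hle hxB
    refine le_normalizer_of_conj_mem (H := A) (X := zpowers x) ?_ (mem_zpowers x)
    intro u hu w hw
    obtain ⟨i, rfl⟩ := Subgroup.mem_zpowers_iff.mp hu
    have hw' : (⟨w, hAS hw⟩ : ↥T) ∈ A0 := hw
    have h2 : (⟨x, hBS hx⟩ : ↥T) ^ i ∈ normalizer (A0 : Set ↥T) := zpow_mem h1 i
    have h3 := (mem_normalizer_iff.mp h2 _).mp hw'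
    exact h3
  obtain ⟨b, hb, hbN, hbA⟩ := exists_mem_normalizer_not_mem hTp B' (normalizer (A0 : Set ↥T)) hnB
  obtain ⟨h1, h2, h3, h4, h5, -, h7, -, -, h10⟩ :=
    glauberman_replacement hTp B' (fun h2 => absurd h2 hp) A0 hA0c hB'A0 b hb hbN hbA
  set St : Subgroup ↥T := glStar A0 b with hSt
  have hcardA0 : Nat.card A0 = Nat.card A :=
    Cfsg.Agent.Lib.OddLocal.card_subgroupOf_of_le hAS
  have hEA : IsElementaryAbelian p (St.map T.subtype) := by
    refine ⟨?_, ?_⟩
    · exact isMulCommutative_map _ h2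
    · rintro _ ⟨x, hx, rfl⟩
      have h11 : Monoid.exponent A0 ∣ p := Monoid.exponent_dvd_of_forall_pow_eq_one (fun g => by
        apply Subtype.ext
        apply Subtype.ext
        have := hA.1.2 g.1.1 g.2
        simpa using this)
      obtain ⟨t, ht⟩ := (h10 hp).trans h11
      have h12 := Monoid.pow_exponent_eq_one (⟨x, hx⟩ : ↥St)
      have h13 : x ^ Monoid.exponent ↥St = 1 := by
        simpa using congrArg (Subtype.val : ↥St → ↥T) h12
      rw [subtype_apply, ← SubgroupClass.coe_pow, ht, pow_mul, h13, one_pow]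
      rfl
  refine ⟨St.map T.subtype, ⟨hEA, fun C hC => ?_⟩, map_subtype_le St, ?_, ?_⟩
  · rw [card_map_of_injective T.subtype_injective, h1, hcardA0]
    exact hA.2 C hC
  · have hcardinf : ∀ X : Subgroup ↥T, Nat.card ↥(X.map T.subtype ⊓ B) = Nat.card ↥(X ⊓ B') := by
      intro X
      have h14 : X.map T.subtype ⊓ B = (X ⊓ B').map T.subtype := by
        ext x
        constructor
        · rintro ⟨⟨y, hy, rfl⟩, hyB⟩
          exact ⟨y, ⟨hy, hyB⟩, rfl⟩
        · rintro ⟨y, ⟨hy, hyB⟩, rfl⟩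
          exact ⟨⟨y, hy, rfl⟩, hyB⟩
      rw [h14, card_map_of_injective T.subtype_injective]
    have h15 : A ⊓ B = A0.map T.subtype ⊓ B := by
      rw [show A0.map T.subtype = A from by
        rw [Subgroup.subgroupOf_map_subtype, inf_eq_left.mpr hAS]]
    rw [h15, hcardinf, hcardinf]
    by_contra hle
    exact (ne_of_lt h4) (Subgroup.eq_of_le_of_card_ge h4.le (not_lt.mp hle))
  · refine le_normalizer_of_conj_mem ?_
    rintro _ ⟨x, hx, rfl⟩ w hw
    have hw' : (⟨w, hAS hw⟩ : ↥T) ∈ A0 := hw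
    exact (mem_normalizer_iff.mp (h7 hx) _).mp hw'

/-- Glauberman's ZJ theorem, elementary abelian form. -/
theorem centerThompsonOf_normal (hp : p ≠ 2) (hc : centralizer (pCore p G : Set G) ≤ pCore p G)
    (hst : ∀ (B : Subgroup G) [B.Normal], IsPGroup p B → IsPStableOn p B) (S : Sylow p G) :
    (centerThompsonOf p (S : Subgroup G)).Normal := by
  classical
  set P : Subgroup G := (S : Subgroup G) with hP
  let F : Set (Subgroup G) := {A | A ∈ maxElementaryAbelianSubgroups p G ∧ A ≤ P}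
  set J : Subgroup G := thompsonSubgroupOf p P with hJ
  have hJF : J = sSup F := thompsonOf_sylow_eq S
  set W : Subgroup G := centerThompsonOf p P with hW
  have hWJ : W ≤ J := inf_le_left
  have hFJ : ∀ A ∈ F, A ≤ J := fun A hA => by
    rw [hJF]
    exact le_sSup hA
  have hJP : J ≤ P := by
    rw [hJF]
    exact sSup_le fun A hA => hA.2
  have hWP : W ≤ P := hWJ.trans hJP
  have hPp : IsPGroup p P := S.isPGroup'
  have hWA : ∀ z ∈ W, ∀ A ∈ F, ∀ a ∈ A, a * z = z * a := fun z hz A hA a ha =>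
    (mem_centralizer_iff.mp hz.2) a (hFJ A hA ha)
  have hWcomm : ∀ x ∈ W, ∀ y ∈ W, x * y = y * x := fun x hx y hy =>
    (mem_centralizer_iff.mp hy.2) x (hWJ hx)
  -- normalizing elements
  have hNJ : ∀ n : G, (∀ A ∈ F, A.map (MulAut.conj n).toMonoidHom ∈ F) → ∀ j ∈ J, n * j * n⁻¹ ∈ J := by
    intro n hn j hj
    have h1 : J ≤ J.comap (MulAut.conj n).toMonoidHom := by
      rw [hJF]
      refine sSup_le fun A hA => ?_
      rw [← Subgroup.map_le_iff_le_comap, ← hJF]
      exact hFJ _ (hn A hA)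
    exact h1 hj
  have hNW : ∀ n : G, (∀ A ∈ F, A.map (MulAut.conj n).toMonoidHom ∈ F) →
      (∀ A ∈ F, A.map (MulAut.conj n⁻¹).toMonoidHom ∈ F) → ∀ z ∈ W, n * z * n⁻¹ ∈ W := by
    intro n h1 h2 z hz
    refine ⟨hNJ n h1 z hz.1, mem_centralizer_iff.mpr fun j hj => ?_⟩
    have h3 := hNJ n⁻¹ h2 j hj
    have h4 := (mem_centralizer_iff.mp hz.2) _ h3
    rw [inv_inv] at h4
    calc j * (n * z * n⁻¹) = n * (n⁻¹ * j * n * z) * n⁻¹ := by group
      _ = n * (z * (n⁻¹ * j * n)) * n⁻¹ := by rw [h4]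
      _ = n * z * n⁻¹ * j := by group
  have hFconj : ∀ (T : Subgroup G) (n : G), n ∈ normalizer (T : Set G) → T ≤ P → (∀ A ∈ F, A ≤ T) →
      ∀ A ∈ F, A.map (MulAut.conj n).toMonoidHom ∈ F := by
    intro T n hn hTP hFT A hA
    refine ⟨maxEA_conj hA.1 n, ?_⟩
    rintro _ ⟨a, ha, rfl⟩
    exact hTP ((mem_normalizer_iff.mp hn a).mp (hFT A hA ha))
  have hZconj : ∀ y ∈ P, ∀ z ∈ W, y * z * y⁻¹ ∈ W := by
    intro y hy z hz
    exact hNW y (hFconj P y (Subgroup.le_normalizer hy) le_rfl fun A hA => hA.2)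
      (hFconj P y⁻¹ (Subgroup.le_normalizer (P.inv_mem hy)) le_rfl fun A hA => hA.2) z hz
  by_contra hnZ
  set V : Subgroup G := W.normalCore with hVdef
  haveI hVn : V.Normal := inferInstance
  have hVW : V ≤ W := W.normalCore_le
  have hWV : ¬ W ≤ V := by
    intro hle
    have : W = V := le_antisymm hle hVW
    apply hnZ
    rw [this]
    exact hVn
  have hVp : IsPGroup p V := hPp.to_le (hVW.trans hWP)
  obtain ⟨z₀, hz₀W, hz₀V, hz₀P⟩ := exists_mem_comm_mem hPp hZconj hWP hWV
  have hz₀c : ∀ v ∈ V, z₀ * v = v * z₀ := fun v hv => hWcomm _ hz₀W _ (hVW hv)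
  -- an element of order `p` modulo `V`
  obtain ⟨z, hzW, hzV, hzP, hzp⟩ : ∃ z ∈ W, z ∉ V ∧ (∀ y ∈ P, ⁅z, y⁆ ∈ V) ∧ z ^ p ∈ V := by
    have hex : ∃ k : ℕ, z₀ ^ (p ^ k) ∈ V := by
      obtain ⟨k, hk⟩ := hPp ⟨z₀, hWP hz₀W⟩
      refine ⟨k, ?_⟩
      have : z₀ ^ (p ^ k) = 1 := by
        simpa using congrArg (Subtype.val : ↥P → G) hk
      rw [this]
      exact one_mem _
    have hk0 : Nat.find hex ≠ 0 := by
      intro h0
      have := Nat.find_spec hex
      rw [h0, pow_zero, pow_one] at this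
      exact hz₀V this
    obtain ⟨k, hk⟩ := Nat.exists_eq_succ_of_ne_zero hk0
    have hmin : z₀ ^ (p ^ k) ∉ V := Nat.find_min hex (by omega)
    have hspec : z₀ ^ (p ^ (k + 1)) ∈ V := by
      have := Nat.find_spec hex
      rwa [hk] at this
    refine ⟨z₀ ^ (p ^ k), W.pow_mem hz₀W _, hmin, fun y hy => ?_, ?_⟩
    · have h1 := pow_comm_of_stabilize (O := ⊥) hz₀c (hz₀P y hy) (p ^ k)
      have h2 : ⁅z₀ ^ (p ^ k), y⁆ = ⁅z₀, y⁆ ^ (p ^ k) := by
        rw [commutatorElement_def, h1]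
        group
      rw [h2]
      exact V.pow_mem (hz₀P y hy) _
    · rw [← pow_mul, ← pow_succ]
      exact hspec
  -- the subgroup `E`
  set O : Subgroup G := pCore p G with hOdef
  haveI hOn : O.Normal := Cfsg.Agent.Lib.Basic.pCore_normal p
  have hOP : O ≤ P := Cfsg.Agent.Lib.Basic.pCore_le_sylow S
  let E : Subgroup G := centralizer (V : Set G) ⊓
    (centralizer ((O.map (QuotientGroup.mk' V) : Subgroup (G ⧸ V)) : Set (G ⧸ V))).comap (QuotientGroup.mk' V)
  haveI hEn : E.Normal := by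
    haveI : (O.map (QuotientGroup.mk' V)).Normal := hOn.map _ (QuotientGroup.mk'_surjective V)
    exact Subgroup.normal_inf_normal _ _
  have hE1 : ∀ x ∈ E, ∀ v ∈ V, x * v = v * x := by
    intro x hx v hv
    exact ((mem_centralizer_iff.mp hx.1) v hv).symm
  have hE2 : ∀ x ∈ E, ∀ y ∈ O, ⁅x, y⁆ ∈ V := by
    intro x hx y hy
    have h1 := (mem_centralizer_iff.mp hx.2) (QuotientGroup.mk' V y) ⟨y, hy, rfl⟩
    have h2 : QuotientGroup.mk' V ⁅x, y⁆ = 1 := by
      rw [commutatorElement_def, map_mul, map_mul, map_mul, map_inv, map_inv, ← h1]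
      group
    rwa [QuotientGroup.mk'_apply, QuotientGroup.eq_one_iff] at h2
  have hEO : E ≤ O := stabilizer_le_pCore hVp hc E hE1 hE2
  have hzE : z ∈ E := by
    refine ⟨mem_centralizer_iff.mpr fun v hv => hWcomm v (hVW hv) z hzW, mem_centralizer_iff.mpr ?_⟩
    rintro _ ⟨y, hy, rfl⟩
    have h1 := hzP y (hOP hy)
    have h2 : QuotientGroup.mk' V ⁅z, y⁆ = 1 := by
      rw [QuotientGroup.mk'_apply, QuotientGroup.eq_one_iff]
      exact h1
    rw [commutatorElement_def, map_mul, map_mul, map_mul, map_inv, map_inv] at h2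
    have h3 : QuotientGroup.mk' V z * QuotientGroup.mk' V y = QuotientGroup.mk' V y * QuotientGroup.mk' V z := by
      calc QuotientGroup.mk' V z * QuotientGroup.mk' V y
          = (QuotientGroup.mk' V z * QuotientGroup.mk' V y * (QuotientGroup.mk' V z)⁻¹ * (QuotientGroup.mk' V y)⁻¹)
            * (QuotientGroup.mk' V y * QuotientGroup.mk' V z) := by group
        _ = QuotientGroup.mk' V y * QuotientGroup.mk' V z := by rw [h2, one_mul]
    exact h3.symm
  -- the normal closure
  set B : Subgroup G := Subgroup.normalClosure ({z} : Set G) with hBdef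
  haveI hBn : B.Normal := Subgroup.normalClosure_normal
  have hzB : z ∈ B := Subgroup.subset_normalClosure rfl
  have hBE : B ≤ E := Subgroup.normalClosure_le_normal (by
    intro y hy
    rw [show y = z from hy]
    exact hzE)
  have hBO : B ≤ O := hBE.trans hEO
  have hBP : B ≤ P := hBO.trans hOP
  have hBp : IsPGroup p B := hPp.to_le hBP
  have hBcomm : ∀ x ∈ B, ∀ y ∈ B, ⁅x, y⁆ ∈ V := fun x hx y hy => hE2 x (hBE hx) y (hBO hy)
  have hBW : ¬ B ≤ W := by
    intro hle
    exact hzV (Subgroup.normal_le_normalCore.mpr hle hzB)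
  -- conjugates generate
  have hBind : ∀ Q : Subgroup G, (∀ g : G, g * z * g⁻¹ ∈ Q) → B ≤ Q := by
    intro Q hQ
    rw [hBdef, Subgroup.normalClosure, Subgroup.closure_le]
    intro y hy
    obtain ⟨w, hw, hwy⟩ := Group.mem_conjugatesOfSet_iff.mp hy
    rw [show w = z from hw] at hwy
    obtain ⟨g, hg⟩ := isConj_iff.mp hwy
    rw [← hg]
    exact hQ g
  -- `p`-th powers
  have hBpow : ∀ x ∈ B, x ^ p ∈ V := by
    intro x hx
    let Q : Subgroup G := (Subgroup.closure (∅ : Set G))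
    have hcl : ∀ x (_ : x ∈ B), QuotientGroup.mk' V (x ^ p) = 1 := by
      intro x hx
      refine Subgroup.closure_induction (p := fun x _ => QuotientGroup.mk' V (x ^ p) = 1)
        ?_ ?_ ?_ ?_ hx
      · intro y hy
        obtain ⟨w, hw, hwy⟩ := Group.mem_conjugatesOfSet_iff.mp hy
        rw [show w = z from hw] at hwy
        obtain ⟨g, hg⟩ := isConj_iff.mp hwy
        rw [← hg, conj_pow, QuotientGroup.mk'_apply, QuotientGroup.eq_one_iff]
        exact hVn.conj_mem _ hzp g
      · simp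
      · intro a b' ha hb' h1 h2
        have hcm : Commute (QuotientGroup.mk' V a) (QuotientGroup.mk' V b') := by
          have h3 : QuotientGroup.mk' V ⁅a, b'⁆ = 1 := by
            rw [QuotientGroup.mk'_apply, QuotientGroup.eq_one_iff]
            exact hBcomm a ha b' hb'
          rw [commutatorElement_def, map_mul, map_mul, map_mul, map_inv, map_inv] at h3
          show QuotientGroup.mk' V a * QuotientGroup.mk' V b' = QuotientGroup.mk' V b' * QuotientGroup.mk' V a
          calc QuotientGroup.mk' V a * QuotientGroup.mk' V b'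
              = (QuotientGroup.mk' V a * QuotientGroup.mk' V b' * (QuotientGroup.mk' V a)⁻¹ * (QuotientGroup.mk' V b')⁻¹)
                * (QuotientGroup.mk' V b' * QuotientGroup.mk' V a) := by group
            _ = QuotientGroup.mk' V b' * QuotientGroup.mk' V a := by rw [h3, one_mul]
        rw [map_pow, map_mul, hcm.mul_pow, ← map_pow, ← map_pow, h1, h2, one_mul]
      · intro a _ h1
        rw [inv_pow, map_inv, h1, inv_one]
    have := hcl x hx
    rwa [QuotientGroup.mk'_apply, QuotientGroup.eq_one_iff] at this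
  have hBcp : ∀ x ∈ B, ∀ y ∈ B, ⁅x, y⁆ ^ p = 1 := by
    intro x hx y hy
    have h1 := pow_comm_of_stabilize (O := ⊥) (hE1 x (hBE hx)) (hBcomm x hx y hy) p
    have h2 : x ^ p * y = y * x ^ p := (hE1 y (hBE hy) _ (hBpow x hx)).symm
    rw [h2] at h1
    have h3 : y * x ^ p * (x ^ p)⁻¹ = y := by group
    rw [h3] at h1
    exact (mul_eq_right.mp h1.symm)
  have hBF : ∀ A ∈ F, ⁅B, B⁆ ≤ A := by
    intro A hA
    rw [Subgroup.commutator_le]
    intro x hx y hy
    exact mem_of_commute_maxEA hA.1 (hBcp x hx y hy) (hWA _ (hVW (hBcomm x hx y hy)) A hA)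
  let C : Subgroup G := centralizer (B : Set G)
  let R : Subgroup G := (pCore p (G ⧸ C)).comap (QuotientGroup.mk' C)
  haveI hCn : C.Normal := inferInstance
  haveI hRn : R.Normal := by
    haveI : (pCore p (G ⧸ C)).Normal := Cfsg.Agent.Lib.Basic.pCore_normal p
    exact Subgroup.Normal.comap this _
  have hdec : ∀ g : G, ∃ c ∈ C, ∃ n ∈ normalizer ((P ⊓ R : Subgroup G) : Set G), g = c * n :=
    frattini_dec S C
  -- Step 1
  have hconjz : ∀ A ∈ F, A ≤ R → ∀ g : G, ∀ a ∈ A, a * (g * z * g⁻¹) = (g * z * g⁻¹) * a := by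
    intro A hA hAR g a ha
    obtain ⟨c, hcC, n, hn, rfl⟩ := hdec g
    have hnz : n * z * n⁻¹ ∈ B := hBn.conj_mem z hzB n
    have h1 : c * (n * z * n⁻¹) * c⁻¹ = n * z * n⁻¹ := by
      have := (mem_centralizer_iff.mp hcC) _ hnz
      rw [← this]
      group
    have h2 : c * n * z * (c * n)⁻¹ = c * (n * z * n⁻¹) * c⁻¹ := by group
    rw [h2, h1]
    have hA' : A.map (MulAut.conj n⁻¹).toMonoidHom ∈ F := by
      refine ⟨maxEA_conj hA.1 _, ?_⟩
      rintro _ ⟨x, hx, rfl⟩
      have hxQ : x ∈ P ⊓ R := ⟨hA.2 hx, hAR hx⟩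
      have h3 := (mem_normalizer_iff.mp (Subgroup.inv_mem _ hn) x).mp hxQ
      exact h3.1
    have h4 := hWA z hzW _ hA' (n⁻¹ * a * n) ⟨a, ha, by simp⟩
    calc a * (n * z * n⁻¹) = n * ((n⁻¹ * a * n) * z) * n⁻¹ := by group
      _ = n * (z * (n⁻¹ * a * n)) * n⁻¹ := by rw [h4]
      _ = n * z * n⁻¹ * a := by group
  have hstep1 : ∀ A ∈ F, A ≤ R → ∀ x ∈ B, ∀ a ∈ A, a * x = x * a := by
    intro A hA hAR x hx a ha
    have h1 : B ≤ centralizer (({a} : Set G)) := by
      apply hBind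
      intro g
      rw [mem_centralizer_iff]
      intro h hh
      rw [Set.mem_singleton_iff] at hh
      rw [hh]
      exact hconjz A hA hAR g a ha
    exact (mem_centralizer_iff.mp (h1 hx)) a rfl
  -- Step 2
  have hquadR : ∀ (D : Subgroup G) [D.Normal] (A : Subgroup G), A ∈ F → D ≤ P → D ≤ normalizer (A : Set G) →
      ∀ a ∈ A, (QuotientGroup.mk a : G ⧸ centralizer (D : Set G)) ∈ pCore p (G ⧸ centralizer (D : Set G)) := by
    intro D _ A hA hDP hDA a ha
    have hstD := hst D (hPp.to_le hDP)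
    refine hstD a ?_
    have h1 : ⁅D, zpowers a⁆ ≤ A := by
      rw [Subgroup.commutator_le]
      intro d hd a' ha'
      have ha'' : a' ∈ A := by
        have : zpowers a ≤ A := by rwa [Subgroup.zpowers_le]
        exact this ha'
      rw [commutatorElement_def]
      exact A.mul_mem ((mem_normalizer_iff.mp (hDA hd) a').mp ha'') (A.inv_mem ha'')
    rw [eq_bot_iff, Subgroup.commutator_le]
    intro x hx y hy
    have hy' : y ∈ A := by
      have : zpowers a ≤ A := by rwa [Subgroup.zpowers_le]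
      exact this hy
    rw [Subgroup.mem_bot, commutatorElement_eq_one_iff_mul_comm]
    have := hA.1.1.1.is_comm.comm ⟨x, h1 hx⟩ ⟨y, hy'⟩
    exact congrArg (Subtype.val : ↥A → G) this
  have hstep2 : ∀ A ∈ F, A ≤ R := by
    by_contra hcon
    push Not at hcon
    have hfin : {A : Subgroup G | A ∈ F ∧ ¬ A ≤ R}.Finite := Set.toFinite _
    obtain ⟨A₀, hA₀, hA₀R⟩ := hcon
    obtain ⟨A, ⟨hA, hAR⟩, hmax⟩ :=
      Set.exists_max_image _ (fun A : Subgroup G => Nat.card ↥(A ⊓ B)) hfin ⟨A₀, hA₀, hA₀R⟩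
    apply hAR
    by_cases hBN : B ≤ normalizer (A : Set G)
    · intro a ha
      exact hquadR B A hA hBP hBN a ha
    · obtain ⟨A', hA'1, hA'2, hA'3, hA'4⟩ := ea_replacement S hp B A hBP
        (by rw [Subgroup.normalizer_eq_top_iff.mpr hBn]; exact le_top) hA.1 hA.2 (hBF A hA) hBN
      have hA'F : A' ∈ F := ⟨hA'1, hA'2⟩
      have hA'R : A' ≤ R := by
        by_contra hn
        have := hmax A' ⟨hA'F, hn⟩
        exact absurd this (not_le.mpr hA'3)
      let D : Subgroup G := omegaOne p B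
      haveI hDn : D.Normal := by
        refine ⟨fun x hx g => ?_⟩
        have h1 : D ≤ D.comap (MulAut.conj g).toMonoidHom := by
          refine (Subgroup.closure_le _).mpr ?_
          rintro y ⟨hy, hyp⟩
          refine Subgroup.subset_closure ⟨hBn.conj_mem y hy g, ?_⟩
          show (g * y * g⁻¹) ^ p = 1
          rw [conj_pow, hyp]
          group
        exact h1 hx
      have hDA' : D ≤ A' := by
        refine (Subgroup.closure_le _).mpr ?_
        rintro y ⟨hy, hyp⟩
        exact mem_of_commute_maxEA hA'1 hyp (hstep1 A' hA'F hA'R y hy)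
      intro a ha
      exact mem_pCore_of_omega hp B D hBp (fun x hx hxp => Subgroup.subset_closure ⟨hx, hxp⟩)
        (hquadR D A hA (hDA'.trans hA'2) (hDA'.trans hA'4) a ha)
  -- Step 3
  apply hBW
  apply hBind
  intro g
  obtain ⟨c, hcC, n, hn, rfl⟩ := hdec g
  have hnz : n * z * n⁻¹ ∈ B := hBn.conj_mem z hzB n
  have h1 : c * (n * z * n⁻¹) * c⁻¹ = n * z * n⁻¹ := by
    have := (mem_centralizer_iff.mp hcC) _ hnz
    rw [← this]
    group
  have h2 : c * n * z * (c * n)⁻¹ = c * (n * z * n⁻¹) * c⁻¹ := by group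
  rw [h2, h1]
  have hFT : ∀ A ∈ F, A ≤ P ⊓ R := fun A hA => le_inf hA.2 (hstep2 A hA)
  exact hNW n (hFconj (P ⊓ R) n hn inf_le_left hFT)
    (hFconj (P ⊓ R) n⁻¹ (Subgroup.inv_mem _ hn) inf_le_left hFT) z hzW

end Cfsg.Agent.Lib.PLocal
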